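import Mathlib
import Cfsg.Agent.BHZ.Spor.NBTools
import Cfsg.Agent.H80.PB.TitsThree
import Cfsg.Agent.H681.NoBadTits

/-!
# S4806, sporadic rows (helper25): the Tits group, `p = 3`
-/

set_option autoImplicit false

namespace Cfsg.Agent.BHZ.Spor

open Cfsg Subgroup

theorem tits_3 : ∀ (S : Type) [Group S] [Finite S], Lie.IsoTits S → RowAb 3 1 S := by
  intro S _ _ h
  have hF : Fact (Nat.Prime 3) := ⟨by norm_num⟩
  have hs : IsSimpleGroup S := H681.NoBadTits.isSimple h
  have hc := NotCT.Orders.tits h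
  exact rowAb_of_nb (nn_three hs hc (by norm_num) (by norm_num) (by norm_num)) (by rw [hc]; norm_num) (H80.PB.nb3_tits h)

end Cfsg.Agent.BHZ.Spor
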